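/-
Even positive-definite integral quadratic forms without roots: vectors congruent modulo 2.
Generic helper for the statements S1587, S1588 (characterisation of the rank-24 lattice).
-/
import Mathlib

set_option autoImplicit false

open Matrix

namespace Cfsg.Agent.Lib.Lattice.EvenRootless

variable {n : ℕ}

/-- the quadratic form attached to an integer matrix -/
def Q (B : Matrix (Fin n) (Fin n) ℤ) (x : Fin n → ℤ) : ℤ := x ⬝ᵥ (B *ᵥ x)

/-- the bilinear form attached to an integer matrix -/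
def P (B : Matrix (Fin n) (Fin n) ℤ) (x y : Fin n → ℤ) : ℤ := x ⬝ᵥ (B *ᵥ y)

theorem P_comm {B : Matrix (Fin n) (Fin n) ℤ} (hsymm : B.IsSymm) (x y : Fin n → ℤ) :
    P B x y = P B y x := by
  unfold P
  rw [Matrix.dotProduct_mulVec, dotProduct_comm, ← Matrix.mulVec_transpose, hsymm]

theorem Q_eq_P (B : Matrix (Fin n) (Fin n) ℤ) (x : Fin n → ℤ) : Q B x = P B x x := rfl

theorem P_add_left (B : Matrix (Fin n) (Fin n) ℤ) (x y z : Fin n → ℤ) :
    P B (x + y) z = P B x z + P B y z := by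
  unfold P
  rw [add_dotProduct]

theorem P_add_right (B : Matrix (Fin n) (Fin n) ℤ) (x y z : Fin n → ℤ) :
    P B x (y + z) = P B x y + P B x z := by
  unfold P
  rw [Matrix.mulVec_add, dotProduct_add]

theorem P_neg_left (B : Matrix (Fin n) (Fin n) ℤ) (x z : Fin n → ℤ) :
    P B (-x) z = - P B x z := by
  unfold P
  rw [neg_dotProduct]

theorem P_neg_right (B : Matrix (Fin n) (Fin n) ℤ) (x z : Fin n → ℤ) :
    P B x (-z) = - P B x z := by
  unfold P
  rw [Matrix.mulVec_neg, dotProduct_neg]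

theorem Q_neg (B : Matrix (Fin n) (Fin n) ℤ) (x : Fin n → ℤ) : Q B (-x) = Q B x := by
  simp [Q_eq_P, P_neg_left, P_neg_right]

theorem Q_zero (B : Matrix (Fin n) (Fin n) ℤ) : Q B 0 = 0 := by
  simp [Q]

/-- Parallelogram setup: if `x - y = 2 a` and `b = x - a` then `x = a + b`, `y = b - a`. -/
theorem congr_decomp {x y : Fin n → ℤ} (hc : ∀ i, (2 : ℤ) ∣ (x - y) i) :
    ∃ a b : Fin n → ℤ, x = b + a ∧ y = b + -a := by
  choose c hc' using hc
  refine ⟨c, x - c, ?_, ?_⟩
  · simp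
  · ext i
    have := hc' i
    simp only [Pi.sub_apply, Pi.add_apply, Pi.neg_apply] at this ⊢
    linarith

theorem Q_add_plus_Q_sub {B : Matrix (Fin n) (Fin n) ℤ} (hsymm : B.IsSymm) (a b : Fin n → ℤ) :
    Q B (b + a) + Q B (b + -a) = 2 * (Q B a + Q B b) := by
  simp only [Q_eq_P, P_add_left, P_add_right, P_neg_left, P_neg_right]
  rw [P_comm hsymm b a]
  ring

theorem P_add_sub {B : Matrix (Fin n) (Fin n) ℤ} (hsymm : B.IsSymm) (a b : Fin n → ℤ) :
    P B (b + a) (b + -a) = Q B b - Q B a := by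
  simp only [Q_eq_P, P_add_left, P_add_right, P_neg_right]
  rw [P_comm hsymm b a]
  ring

/-- The common hypotheses: even, positive definite and without roots. -/
structure Rootless (B : Matrix (Fin n) (Fin n) ℤ) : Prop where
  symm : B.IsSymm
  pos : ∀ x : Fin n → ℤ, x ≠ 0 → 0 < x ⬝ᵥ (B *ᵥ x)
  even : ∀ x : Fin n → ℤ, (2 : ℤ) ∣ x ⬝ᵥ (B *ᵥ x)
  noroot : ∀ x : Fin n → ℤ, x ⬝ᵥ (B *ᵥ x) ≠ 2

theorem Rootless.Q_nonneg {B : Matrix (Fin n) (Fin n) ℤ} (h : Rootless B) (x : Fin n → ℤ) :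
    0 ≤ Q B x := by
  by_cases hx : x = 0
  · subst hx; simp [Q_zero]
  · exact le_of_lt (h.pos x hx)

theorem Rootless.Q_eq_zero {B : Matrix (Fin n) (Fin n) ℤ} (h : Rootless B) {x : Fin n → ℤ}
    (hx : Q B x = 0) : x = 0 := by
  by_contra hne
  have := h.pos x hne
  unfold Q at hx
  omega

/-- the possible small values of the norm -/
theorem Rootless.Q_cases {B : Matrix (Fin n) (Fin n) ℤ} (h : Rootless B) (x : Fin n → ℤ) :
    Q B x = 0 ∨ 4 ≤ Q B x := by
  have h1 := h.Q_nonneg x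
  have h2 := h.even x
  have h3 := h.noroot x
  change (2 : ℤ) ∣ Q B x at h2
  change Q B x ≠ 2 at h3
  omega

/-- Congruent vectors of small norm: general statement. -/
theorem Rootless.congr_cases {B : Matrix (Fin n) (Fin n) ℤ} (h : Rootless B)
    {x y : Fin n → ℤ} (hc : ∀ i, (2 : ℤ) ∣ (x - y) i) :
    ∃ a b : Fin n → ℤ, x = b + a ∧ y = b + -a ∧ Q B x + Q B y = 2 * (Q B a + Q B b) ∧
      P B x y = Q B b - Q B a := by
  obtain ⟨a, b, rfl, rfl⟩ := congr_decomp hc
  exact ⟨a, b, rfl, rfl, Q_add_plus_Q_sub h.symm a b, P_add_sub h.symm a b⟩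

/-- Two congruent vectors of norm 8 are equal, opposite or orthogonal. -/
theorem Rootless.norm8 {B : Matrix (Fin n) (Fin n) ℤ} (h : Rootless B)
    {x y : Fin n → ℤ} (hx : Q B x = 8) (hy : Q B y = 8) (hc : ∀ i, (2 : ℤ) ∣ (x - y) i) :
    y = x ∨ y = -x ∨ P B x y = 0 := by
  obtain ⟨a, b, rfl, rfl, h1, h2⟩ := h.congr_cases hc
  rw [hx, hy] at h1
  have ha := h.Q_cases a
  have hb := h.Q_cases b
  have ha2 := h.even a
  have hb2 := h.even b
  change (2 : ℤ) ∣ Q B a at ha2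
  change (2 : ℤ) ∣ Q B b at hb2
  rcases ha with ha | ha
  · left
    rw [h.Q_eq_zero ha]
    simp
  · rcases hb with hb | hb
    · right; left
      rw [h.Q_eq_zero hb]
      simp
    · right; right
      rw [h2]
      omega

/-- Two congruent vectors of norm 4 are equal or opposite. -/
theorem Rootless.norm4 {B : Matrix (Fin n) (Fin n) ℤ} (h : Rootless B)
    {x y : Fin n → ℤ} (hx : Q B x = 4) (hy : Q B y = 4) (hc : ∀ i, (2 : ℤ) ∣ (x - y) i) :
    y = x ∨ y = -x := by
  obtain ⟨a, b, rfl, rfl, h1, _⟩ := h.congr_cases hc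
  rw [hx, hy] at h1
  have ha := h.Q_cases a
  have hb := h.Q_cases b
  rcases ha with ha | ha
  · left
    rw [h.Q_eq_zero ha]
    simp
  · rcases hb with hb | hb
    · right
      rw [h.Q_eq_zero hb]
      simp
    · omega

/-- Two congruent vectors of norm 6 are equal or opposite. -/
theorem Rootless.norm6 {B : Matrix (Fin n) (Fin n) ℤ} (h : Rootless B)
    {x y : Fin n → ℤ} (hx : Q B x = 6) (hy : Q B y = 6) (hc : ∀ i, (2 : ℤ) ∣ (x - y) i) :
    y = x ∨ y = -x := by
  obtain ⟨a, b, rfl, rfl, h1, _⟩ := h.congr_cases hc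
  rw [hx, hy] at h1
  have ha := h.Q_cases a
  have hb := h.Q_cases b
  rcases ha with ha | ha
  · left
    rw [h.Q_eq_zero ha]
    simp
  · rcases hb with hb | hb
    · right
      rw [h.Q_eq_zero hb]
      simp
    · omega

/-- no congruences between the different norms among 0, 4, 6, 8 -/
theorem Rootless.no_congr {B : Matrix (Fin n) (Fin n) ℤ} (h : Rootless B)
    {x y : Fin n → ℤ} (hc : ∀ i, (2 : ℤ) ∣ (x - y) i)
    (hxy : (Q B x = 0 ∧ Q B y = 4) ∨ (Q B x = 0 ∧ Q B y = 6) ∨ (Q B x = 0 ∧ Q B y = 8) ∨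
      (Q B x = 4 ∧ Q B y = 6) ∨ (Q B x = 4 ∧ Q B y = 8) ∨ (Q B x = 6 ∧ Q B y = 8)) : False := by
  obtain ⟨a, b, rfl, rfl, h1, _⟩ := h.congr_cases hc
  have ha := h.Q_cases a
  have hb := h.Q_cases b
  have ha2 := h.even a
  have hb2 := h.even b
  change (2 : ℤ) ∣ Q B a at ha2
  change (2 : ℤ) ∣ Q B b at hb2
  rcases ha with ha | ha
  · have ha0 := h.Q_eq_zero ha
    subst ha0
    simp only [neg_zero, add_zero] at hxy h1
    rcases hxy with h' | h' | h' | h' | h' | h' <;> omega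
  · rcases hb with hb | hb
    · have hb0 := h.Q_eq_zero hb
      subst hb0
      simp only [zero_add] at hxy
      rw [Q_neg] at hxy
      rcases hxy with h' | h' | h' | h' | h' | h' <;> omega
    · rcases hxy with h' | h' | h' | h' | h' | h' <;> omega

end Cfsg.Agent.Lib.Lattice.EvenRootless
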