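/-
Even positive-definite integral quadratic forms without roots: counting classes modulo 2.
-/
import Cfsg.Agent.Lib.Lattice.EvenRootless

set_option autoImplicit false

open Matrix

namespace Cfsg.Agent.Lib.Lattice.EvenRootlessCount

open Cfsg.Agent.Lib.Lattice.EvenRootless

variable {n : ℕ}

/-- reduction modulo 2 -/
def red (x : Fin n → ℤ) : Fin n → ZMod 2 := fun i => (x i : ZMod 2)

theorem red_eq_iff (x y : Fin n → ℤ) : red x = red y ↔ ∀ i, (2 : ℤ) ∣ (x - y) i := by
  unfold red
  rw [funext_iff]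
  refine forall_congr' fun i => ?_
  rw [← sub_eq_zero, ← Int.cast_sub, ← Pi.sub_apply]
  have := ZMod.intCast_zmod_eq_zero_iff_dvd ((x - y) i) 2
  simpa using this

/-- the `ℚ`-form computing the integer form -/
theorem cast_P (B : Matrix (Fin n) (Fin n) ℤ) (x y : Fin n → ℤ) :
    ((P B x y : ℤ) : ℚ) =
      (fun i => (x i : ℚ)) ⬝ᵥ ((B.map (Int.castRingHom ℚ)) *ᵥ (fun i => (y i : ℚ))) := by
  unfold P
  have h := RingHom.map_dotProduct (Int.castRingHom ℚ) x (B *ᵥ y)
  have h2 : (Int.castRingHom ℚ) ∘ (B *ᵥ y) =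
      (B.map (Int.castRingHom ℚ)) *ᵥ ((Int.castRingHom ℚ) ∘ y) := by
    ext i
    exact RingHom.map_mulVec (Int.castRingHom ℚ) B y i
  rw [h2] at h
  simpa [Function.comp_def] using h

/-- A family of pairwise orthogonal vectors with a nonzero norm is linearly independent over `ℚ`. -/
theorem linInd_of_orth {ι : Type*} (B : Matrix (Fin n) (Fin n) ℤ) (r : ι → (Fin n → ℤ))
    (hnz : ∀ i, Q B (r i) ≠ 0) (horth : ∀ i j, i ≠ j → P B (r i) (r j) = 0) :
    LinearIndependent ℚ (fun i => (fun k => (r i k : ℚ)) : ι → (Fin n → ℚ)) := by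
  classical
  rw [linearIndependent_iff']
  intro s g hg j hj
  have h1 := congrArg
    (fun w : Fin n → ℚ => w ⬝ᵥ ((B.map (Int.castRingHom ℚ)) *ᵥ (fun k => (r j k : ℚ)))) hg
  simp only [zero_dotProduct, sum_dotProduct, smul_dotProduct, ← cast_P, smul_eq_mul] at h1
  rw [Finset.sum_eq_single j] at h1
  · have h2 : ((P B (r j) (r j) : ℤ) : ℚ) ≠ 0 := by
      rw [← Q_eq_P]
      exact_mod_cast hnz j
    exact (mul_eq_zero.mp h1).resolve_right h2
  · intro b _ hb
    rw [horth b j hb]
    simp
  · intro h; exact absurd hj h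

/-- A set of vectors of a fixed nonzero norm, pairwise equal, opposite or orthogonal, has at most
`2 n` members. -/
theorem frame_bound (B : Matrix (Fin n) (Fin n) ℤ) (F : Finset (Fin n → ℤ))
    (hnz : ∀ y ∈ F, Q B y ≠ 0)
    (hcong : ∀ y ∈ F, ∀ z ∈ F, z = y ∨ z = -y ∨ P B y z = 0) : F.card ≤ 2 * n := by
  classical
  set q : (Fin n → ℤ) → Finset (Fin n → ℤ) := fun y => {y, -y} with hq
  have hcard : F.card ≤ 2 * (F.image q).card := by
    apply Finset.card_le_mul_card_image
    intro a ha
    obtain ⟨y, _, rfl⟩ := Finset.mem_image.mp ha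
    calc (F.filter fun x => q x = q y).card ≤ ({y, -y} : Finset (Fin n → ℤ)).card := by
          apply Finset.card_le_card
          intro z hz
          have hz' : q z = q y := (Finset.mem_filter.mp hz).2
          have : z ∈ q z := by simp [hq]
          rw [hz'] at this
          exact this
      _ ≤ 2 := Finset.card_le_two
  have hrep : ∀ s : ↥(F.image q), ∃ y ∈ F, q y = s := fun s => Finset.mem_image.mp s.2
  choose r hrF hrq using hrep
  have hli := linInd_of_orth (ι := ↥(F.image q)) B r (fun s => hnz _ (hrF s)) (by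
    intro s t hst
    rcases hcong _ (hrF s) _ (hrF t) with h | h | h
    · exfalso
      apply hst
      apply Subtype.ext
      rw [← hrq s, ← hrq t, h]
    · exfalso
      apply hst
      apply Subtype.ext
      rw [← hrq s, ← hrq t, h]
      simp only [hq, neg_neg]
      exact Finset.pair_comm _ _
    · exact h)
  have h3 := hli.fintype_card_le_finrank
  simp only [Module.finrank_pi, Fintype.card_coe, Fintype.card_fin] at h3
  have : (F.image q).card ≤ n := by simpa using h3
  omega

section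
variable {B : Matrix (Fin n) (Fin n) ℤ}

/-- In a class of norm `N` in {4, 6}, each nonempty fibre has exactly two members. -/
theorem card_eq_two_mul_image (h : Rootless B) {N : ℤ} (hN : N = 4 ∨ N = 6)
    (F : Finset (Fin n → ℤ)) (hF : ∀ y, y ∈ F ↔ Q B y = N) :
    F.card = 2 * (F.image red).card := by
  classical
  rw [Finset.card_eq_sum_card_image red F, Finset.sum_const_nat (m := 2), mul_comm]
  intro c hc
  obtain ⟨x, hx, rfl⟩ := Finset.mem_image.mp hc
  have hxQ : Q B x = N := (hF x).mp hx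
  have hfib : (F.filter fun y => red y = red x) = {x, -x} := by
    ext y
    simp only [Finset.mem_filter, Finset.mem_insert, Finset.mem_singleton, hF]
    constructor
    · rintro ⟨hy, hr⟩
      have hc' := (red_eq_iff x y).mp hr.symm
      rcases hN with rfl | rfl
      · exact h.norm4 hxQ hy hc'
      · exact h.norm6 hxQ hy hc'
    · rintro (rfl | rfl)
      · exact ⟨hxQ, rfl⟩
      · refine ⟨by rw [Q_neg]; exact hxQ, ?_⟩
        funext i
        simp only [red, Pi.neg_apply, Int.cast_neg]
        exact ZMod.neg_eq_self_mod_two _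
  rw [hfib]
  apply Finset.card_pair
  intro hne
  have hx0 : x = 0 := by
    funext i
    have := congrFun hne i
    simp only [Pi.neg_apply] at this
    simp only [Pi.zero_apply]
    omega
  rw [hx0, Q_zero] at hxQ
  rcases hN with rfl | rfl <;> omega

end

/-- The main counting theorem. -/
theorem main {B : Matrix (Fin 24) (Fin 24) ℤ} (h : Rootless B)
    (h4 : {x : Fin 24 → ℤ | x ⬝ᵥ (B *ᵥ x) = 4}.ncard = 196560)
    (h6 : {x : Fin 24 → ℤ | x ⬝ᵥ (B *ᵥ x) = 6}.ncard = 16773120)
    (h8 : {x : Fin 24 → ℤ | x ⬝ᵥ (B *ᵥ x) = 8}.ncard = 398034000) (x : Fin 24 → ℤ)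
    (hx : x ⬝ᵥ (B *ᵥ x) = 8) :
    {y : Fin 24 → ℤ | y ⬝ᵥ (B *ᵥ y) = 8 ∧ ∀ i, (2 : ℤ) ∣ (x - y) i}.ncard = 48 := by
  classical
  have hf4 : {x : Fin 24 → ℤ | x ⬝ᵥ (B *ᵥ x) = 4}.Finite :=
    Set.finite_of_ncard_ne_zero (by rw [h4]; norm_num)
  have hf6 : {x : Fin 24 → ℤ | x ⬝ᵥ (B *ᵥ x) = 6}.Finite :=
    Set.finite_of_ncard_ne_zero (by rw [h6]; norm_num)
  have hf8 : {x : Fin 24 → ℤ | x ⬝ᵥ (B *ᵥ x) = 8}.Finite :=
    Set.finite_of_ncard_ne_zero (by rw [h8]; norm_num)
  set F4 := hf4.toFinset with hF4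
  set F6 := hf6.toFinset with hF6
  set F8 := hf8.toFinset with hF8
  have mem4 : ∀ y, y ∈ F4 ↔ Q B y = 4 := fun y => by simp [hF4, Q]
  have mem6 : ∀ y, y ∈ F6 ↔ Q B y = 6 := fun y => by simp [hF6, Q]
  have mem8 : ∀ y, y ∈ F8 ↔ Q B y = 8 := fun y => by simp [hF8, Q]
  have c4 : F4.card = 196560 := by rw [hF4, ← Set.ncard_eq_toFinset_card _ hf4, h4]
  have c6 : F6.card = 16773120 := by rw [hF6, ← Set.ncard_eq_toFinset_card _ hf6, h6]
  have c8 : F8.card = 398034000 := by rw [hF8, ← Set.ncard_eq_toFinset_card _ hf8, h8]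
  have i4 := card_eq_two_mul_image h (N := 4) (Or.inl rfl) F4 mem4
  have i6 := card_eq_two_mul_image h (N := 6) (Or.inr rfl) F6 mem6
  rw [c4] at i4
  rw [c6] at i6
  -- disjointness of the images
  have disj : ∀ {S T : Finset (Fin 24 → ℤ)},
      (∀ y ∈ S, ∀ z ∈ T, (∀ i, (2 : ℤ) ∣ (y - z) i) → False) →
      Disjoint (S.image red) (T.image red) := by
    intro S T hST
    rw [Finset.disjoint_left]
    intro c hc hc'
    obtain ⟨y, hy, rfl⟩ := Finset.mem_image.mp hc
    obtain ⟨z, hz, hzy⟩ := Finset.mem_image.mp hc'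
    exact hST y hy z hz ((red_eq_iff y z).mp hzy.symm)
  have d04 : Disjoint (({0} : Finset (Fin 24 → ℤ)).image red) (F4.image red) := by
    apply disj
    intro y hy z hz hc
    rw [Finset.mem_singleton] at hy
    subst hy
    exact h.no_congr hc (Or.inl ⟨Q_zero B, (mem4 z).mp hz⟩)
  have d06 : Disjoint (({0} : Finset (Fin 24 → ℤ)).image red) (F6.image red) := by
    apply disj
    intro y hy z hz hc
    rw [Finset.mem_singleton] at hy
    subst hy
    exact h.no_congr hc (Or.inr (Or.inl ⟨Q_zero B, (mem6 z).mp hz⟩))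
  have d08 : Disjoint (({0} : Finset (Fin 24 → ℤ)).image red) (F8.image red) := by
    apply disj
    intro y hy z hz hc
    rw [Finset.mem_singleton] at hy
    subst hy
    exact h.no_congr hc (Or.inr (Or.inr (Or.inl ⟨Q_zero B, (mem8 z).mp hz⟩)))
  have d46 : Disjoint (F4.image red) (F6.image red) := by
    apply disj
    intro y hy z hz hc
    exact h.no_congr hc (Or.inr (Or.inr (Or.inr (Or.inl ⟨(mem4 y).mp hy, (mem6 z).mp hz⟩))))
  have d48 : Disjoint (F4.image red) (F8.image red) := by
    apply disj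
    intro y hy z hz hc
    exact h.no_congr hc (Or.inr (Or.inr (Or.inr (Or.inr (Or.inl
      ⟨(mem4 y).mp hy, (mem8 z).mp hz⟩)))))
  have d68 : Disjoint (F6.image red) (F8.image red) := by
    apply disj
    intro y hy z hz hc
    exact h.no_congr hc (Or.inr (Or.inr (Or.inr (Or.inr (Or.inr
      ⟨(mem6 y).mp hy, (mem8 z).mp hz⟩)))))
  -- total number of classes
  have total : 1 + (F4.image red).card + (F6.image red).card + (F8.image red).card ≤ 2 ^ 24 := by
    have hu : ((({0} : Finset (Fin 24 → ℤ)).image red) ∪ (F4.image red) ∪ (F6.image red)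
        ∪ (F8.image red)).card ≤ Fintype.card (Fin 24 → ZMod 2) := Finset.card_le_univ _
    have hcard : Fintype.card (Fin 24 → ZMod 2) = 2 ^ 24 := by
      simp [ZMod.card]
    rw [hcard] at hu
    rw [Finset.card_union_of_disjoint, Finset.card_union_of_disjoint,
      Finset.card_union_of_disjoint d04] at hu
    · simpa using hu
    · rw [Finset.disjoint_union_left]; exact ⟨d06, d46⟩
    · rw [Finset.disjoint_union_left, Finset.disjoint_union_left]; exact ⟨⟨d08, d48⟩, d68⟩
  have hI8 : (F8.image red).card ≤ 8292375 := by omega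
  -- every fibre has at most 48 members
  have fib_le : ∀ c ∈ F8.image red, (F8.filter fun y => red y = c).card ≤ 48 := by
    intro c _
    have := frame_bound B (F8.filter fun y => red y = c) (by
      intro y hy
      rw [(mem8 y).mp (Finset.mem_filter.mp hy).1]
      norm_num) (by
      intro y hy z hz
      have hy' := Finset.mem_filter.mp hy
      have hz' := Finset.mem_filter.mp hz
      exact h.norm8 ((mem8 y).mp hy'.1) ((mem8 z).mp hz'.1)
        ((red_eq_iff y z).mp (hy'.2.trans hz'.2.symm)))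
    simpa using this
  have hxF : x ∈ F8 := (mem8 x).mpr hx
  have hxI : red x ∈ F8.image red := Finset.mem_image_of_mem _ hxF
  have fib_eq : (F8.filter fun y => red y = red x).card = 48 := by
    by_contra hne
    have hlt : (F8.filter fun y => red y = red x).card < 48 :=
      lt_of_le_of_ne (fib_le _ hxI) hne
    have hs : ∑ c ∈ F8.image red, (F8.filter fun y => red y = c).card
        < ∑ _c ∈ F8.image red, 48 :=
      Finset.sum_lt_sum fib_le ⟨_, hxI, hlt⟩
    rw [← Finset.card_eq_sum_card_image red F8, c8, Finset.sum_const, smul_eq_mul] at hs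
    omega
  have hset : {y : Fin 24 → ℤ | y ⬝ᵥ (B *ᵥ y) = 8 ∧ ∀ i, (2 : ℤ) ∣ (x - y) i} =
      ↑(F8.filter fun y => red y = red x) := by
    ext y
    simp only [Set.mem_ofPred_eq, Finset.coe_filter, mem8, Q]
    refine and_congr_right fun _ => ?_
    rw [← red_eq_iff, eq_comm]
  rw [hset, Set.ncard_coe_finset, fib_eq]

end Cfsg.Agent.Lib.Lattice.EvenRootlessCount
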